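import Cfsg.Agent.Lib.Helper17.E6I.DefsE
import Cfsg.Agent.Lib.Helper8.E6I.E1

set_option autoImplicit false
set_option linter.unusedSimpArgs false

namespace Cfsg.Agent.Lib.Helper75.E6I

open Cfsg.Lie Cfsg.Agent.Lib.Helper18 Cfsg.Agent.Lib.Helper17 Cfsg.Agent.Lib.Helper36
  Cfsg.Agent.Lib.Helper6 Matrix Cfsg.Agent.Lib.Helper17.E6I
open Cfsg.Agent.Lib.Helper8.E6I

variable {F : Type*} [Field F] (hB : Base chevE6 F)

/-- [E9] fusion 4A1 → 3A1 -/
theorem fusion [CharP F 2] : ∃ g ∈ chevE6.group F,
    g * CG.lp hB [42, 53, 37, 46] (fun _ => 1) * g⁻¹ = CG.lp hB [42, 46, 37] (fun _ => 1) := by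
  have sq : ∀ (r : ℕ) (w : GL chevE6.Idx F), hB.xg r 1 * (hB.xg r 1 * w) = w := by
    intro r w
    rw [← mul_assoc, hB.xg_add, CharTwo.add_self_eq_zero, hB.xg_zero, one_mul]
  have cn : ∀ r s : ℕ, 36 ≤ r → r < 72 → 36 ≤ s → s < 72 → e6add r s = none →
      ∀ w : GL chevE6.Idx F, hB.xg r 1 * (hB.xg s 1 * w) = hB.xg s 1 * (hB.xg r 1 * w) := by
    intro r s h1 h2 h3 h4 h w
    rw [← mul_assoc, e6_comm_none hB r s h1 h2 h3 h4 h, mul_assoc]
  have cs : ∀ r s k : ℕ, 36 ≤ r → r < 72 → 36 ≤ s → s < 72 → e6add r s = some k →
      ∀ w : GL chevE6.Idx F,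
        hB.xg r 1 * (hB.xg s 1 * w) = hB.xg s 1 * (hB.xg k 1 * (hB.xg r 1 * w)) := by
    intro r s k h1 h2 h3 h4 h w
    have e := e6_conj_some hB r s k h1 h2 h3 h4 h 1 1
    rw [mul_one, mul_inv_eq_iff_eq_mul] at e
    rw [← mul_assoc, e]
    simp only [mul_assoc]
  have c_39_37 := cs 39 37 40 (by norm_num) (by norm_num) (by norm_num) (by norm_num) (by decide +kernel)
  have c_40_37 := cn 40 37 (by norm_num) (by norm_num) (by norm_num) (by norm_num) (by decide +kernel)
  have c_40_39 := cn 40 39 (by norm_num) (by norm_num) (by norm_num) (by norm_num) (by decide +kernel)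
  have c_42_37 := cn 42 37 (by norm_num) (by norm_num) (by norm_num) (by norm_num) (by decide +kernel)
  have c_42_39 := cs 42 39 43 (by norm_num) (by norm_num) (by norm_num) (by norm_num) (by decide +kernel)
  have c_42_40 := cs 42 40 44 (by norm_num) (by norm_num) (by norm_num) (by norm_num) (by decide +kernel)
  have c_43_37 := cs 43 37 44 (by norm_num) (by norm_num) (by norm_num) (by norm_num) (by decide +kernel)
  have c_43_39 := cn 43 39 (by norm_num) (by norm_num) (by norm_num) (by norm_num) (by decide +kernel)
  have c_43_40 := cn 43 40 (by norm_num) (by norm_num) (by norm_num) (by norm_num) (by decide +kernel)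
  have c_43_42 := cn 43 42 (by norm_num) (by norm_num) (by norm_num) (by norm_num) (by decide +kernel)
  have c_44_37 := cn 44 37 (by norm_num) (by norm_num) (by norm_num) (by norm_num) (by decide +kernel)
  have c_44_39 := cn 44 39 (by norm_num) (by norm_num) (by norm_num) (by norm_num) (by decide +kernel)
  have c_44_40 := cn 44 40 (by norm_num) (by norm_num) (by norm_num) (by norm_num) (by decide +kernel)
  have c_44_42 := cn 44 42 (by norm_num) (by norm_num) (by norm_num) (by norm_num) (by decide +kernel)
  have c_44_43 := cn 44 43 (by norm_num) (by norm_num) (by norm_num) (by norm_num) (by decide +kernel)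
  have c_46_37 := cn 46 37 (by norm_num) (by norm_num) (by norm_num) (by norm_num) (by decide +kernel)
  have c_46_39 := cs 46 39 47 (by norm_num) (by norm_num) (by norm_num) (by norm_num) (by decide +kernel)
  have c_46_40 := cs 46 40 48 (by norm_num) (by norm_num) (by norm_num) (by norm_num) (by decide +kernel)
  have c_46_42 := cn 46 42 (by norm_num) (by norm_num) (by norm_num) (by norm_num) (by decide +kernel)
  have c_46_43 := cs 46 43 50 (by norm_num) (by norm_num) (by norm_num) (by norm_num) (by decide +kernel)
  have c_46_44 := cs 46 44 51 (by norm_num) (by norm_num) (by norm_num) (by norm_num) (by decide +kernel)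
  have c_47_37 := cs 47 37 48 (by norm_num) (by norm_num) (by norm_num) (by norm_num) (by decide +kernel)
  have c_47_39 := cn 47 39 (by norm_num) (by norm_num) (by norm_num) (by norm_num) (by decide +kernel)
  have c_47_40 := cn 47 40 (by norm_num) (by norm_num) (by norm_num) (by norm_num) (by decide +kernel)
  have c_47_42 := cs 47 42 50 (by norm_num) (by norm_num) (by norm_num) (by norm_num) (by decide +kernel)
  have c_47_43 := cn 47 43 (by norm_num) (by norm_num) (by norm_num) (by norm_num) (by decide +kernel)
  have c_47_44 := cs 47 44 53 (by norm_num) (by norm_num) (by norm_num) (by norm_num) (by decide +kernel)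
  have c_47_46 := cn 47 46 (by norm_num) (by norm_num) (by norm_num) (by norm_num) (by decide +kernel)
  have c_48_37 := cn 48 37 (by norm_num) (by norm_num) (by norm_num) (by norm_num) (by decide +kernel)
  have c_48_39 := cn 48 39 (by norm_num) (by norm_num) (by norm_num) (by norm_num) (by decide +kernel)
  have c_48_40 := cn 48 40 (by norm_num) (by norm_num) (by norm_num) (by norm_num) (by decide +kernel)
  have c_48_42 := cs 48 42 51 (by norm_num) (by norm_num) (by norm_num) (by norm_num) (by decide +kernel)
  have c_48_43 := cs 48 43 53 (by norm_num) (by norm_num) (by norm_num) (by norm_num) (by decide +kernel)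
  have c_48_44 := cn 48 44 (by norm_num) (by norm_num) (by norm_num) (by norm_num) (by decide +kernel)
  have c_48_46 := cn 48 46 (by norm_num) (by norm_num) (by norm_num) (by norm_num) (by decide +kernel)
  have c_48_47 := cn 48 47 (by norm_num) (by norm_num) (by norm_num) (by norm_num) (by decide +kernel)
  have c_50_37 := cs 50 37 51 (by norm_num) (by norm_num) (by norm_num) (by norm_num) (by decide +kernel)
  have c_50_39 := cn 50 39 (by norm_num) (by norm_num) (by norm_num) (by norm_num) (by decide +kernel)
  have c_50_40 := cs 50 40 53 (by norm_num) (by norm_num) (by norm_num) (by norm_num) (by decide +kernel)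
  have c_50_42 := cn 50 42 (by norm_num) (by norm_num) (by norm_num) (by norm_num) (by decide +kernel)
  have c_50_43 := cn 50 43 (by norm_num) (by norm_num) (by norm_num) (by norm_num) (by decide +kernel)
  have c_50_44 := cn 50 44 (by norm_num) (by norm_num) (by norm_num) (by norm_num) (by decide +kernel)
  have c_50_46 := cn 50 46 (by norm_num) (by norm_num) (by norm_num) (by norm_num) (by decide +kernel)
  have c_50_47 := cn 50 47 (by norm_num) (by norm_num) (by norm_num) (by norm_num) (by decide +kernel)
  have c_50_48 := cn 50 48 (by norm_num) (by norm_num) (by norm_num) (by norm_num) (by decide +kernel)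
  have c_51_37 := cn 51 37 (by norm_num) (by norm_num) (by norm_num) (by norm_num) (by decide +kernel)
  have c_51_39 := cs 51 39 53 (by norm_num) (by norm_num) (by norm_num) (by norm_num) (by decide +kernel)
  have c_51_40 := cn 51 40 (by norm_num) (by norm_num) (by norm_num) (by norm_num) (by decide +kernel)
  have c_51_42 := cn 51 42 (by norm_num) (by norm_num) (by norm_num) (by norm_num) (by decide +kernel)
  have c_51_43 := cn 51 43 (by norm_num) (by norm_num) (by norm_num) (by norm_num) (by decide +kernel)
  have c_51_44 := cn 51 44 (by norm_num) (by norm_num) (by norm_num) (by norm_num) (by decide +kernel)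
  have c_51_46 := cn 51 46 (by norm_num) (by norm_num) (by norm_num) (by norm_num) (by decide +kernel)
  have c_51_47 := cn 51 47 (by norm_num) (by norm_num) (by norm_num) (by norm_num) (by decide +kernel)
  have c_51_48 := cn 51 48 (by norm_num) (by norm_num) (by norm_num) (by norm_num) (by decide +kernel)
  have c_51_50 := cn 51 50 (by norm_num) (by norm_num) (by norm_num) (by norm_num) (by decide +kernel)
  have c_53_37 := cn 53 37 (by norm_num) (by norm_num) (by norm_num) (by norm_num) (by decide +kernel)
  have c_53_39 := cn 53 39 (by norm_num) (by norm_num) (by norm_num) (by norm_num) (by decide +kernel)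
  have c_53_40 := cn 53 40 (by norm_num) (by norm_num) (by norm_num) (by norm_num) (by decide +kernel)
  have c_53_42 := cn 53 42 (by norm_num) (by norm_num) (by norm_num) (by norm_num) (by decide +kernel)
  have c_53_43 := cn 53 43 (by norm_num) (by norm_num) (by norm_num) (by norm_num) (by decide +kernel)
  have c_53_44 := cn 53 44 (by norm_num) (by norm_num) (by norm_num) (by norm_num) (by decide +kernel)
  have c_53_46 := cn 53 46 (by norm_num) (by norm_num) (by norm_num) (by norm_num) (by decide +kernel)
  have c_53_47 := cn 53 47 (by norm_num) (by norm_num) (by norm_num) (by norm_num) (by decide +kernel)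
  have c_53_48 := cn 53 48 (by norm_num) (by norm_num) (by norm_num) (by norm_num) (by decide +kernel)
  have c_53_50 := cn 53 50 (by norm_num) (by norm_num) (by norm_num) (by norm_num) (by decide +kernel)
  have c_53_51 := cn 53 51 (by norm_num) (by norm_num) (by norm_num) (by norm_num) (by decide +kernel)
  have key : ∀ w : GL chevE6.Idx F,
      hB.xg 40 1 * (hB.xg 47 1 * (hB.xg 50 1 * (hB.xg 43 1 *
        (hB.xg 42 1 * (hB.xg 53 1 * (hB.xg 37 1 * (hB.xg 46 1 * w))))))) =
      hB.xg 42 1 * (hB.xg 46 1 * (hB.xg 37 1 *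
        (hB.xg 40 1 * (hB.xg 47 1 * (hB.xg 50 1 * (hB.xg 43 1 * w)))))) := by
    intro w
    simp only [sq, c_39_37, c_40_37, c_40_39, c_42_37, c_42_39, c_42_40, c_43_37, c_43_39, c_43_40, c_43_42, c_44_37, c_44_39, c_44_40, c_44_42, c_44_43, c_46_37, c_46_39, c_46_40, c_46_42, c_46_43, c_46_44, c_47_37, c_47_39, c_47_40, c_47_42, c_47_43, c_47_44, c_47_46, c_48_37, c_48_39, c_48_40, c_48_42, c_48_43, c_48_44, c_48_46, c_48_47, c_50_37, c_50_39, c_50_40, c_50_42, c_50_43, c_50_44, c_50_46, c_50_47, c_50_48, c_51_37, c_51_39, c_51_40, c_51_42, c_51_43, c_51_44, c_51_46, c_51_47, c_51_48, c_51_50, c_53_37, c_53_39, c_53_40, c_53_42, c_53_43, c_53_44, c_53_46, c_53_47, c_53_48, c_53_50, c_53_51]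
  refine ⟨hB.xg 40 1 * (hB.xg 47 1 * (hB.xg 50 1 * hB.xg 43 1)), ?_, ?_⟩
  · have hm : ∀ r, r < 72 → hB.xg r (1 : F) ∈ chevE6.group F := fun r hr =>
      hB.xg_mem_group (by exact hr) 1
    exact mul_mem (hm 40 (by norm_num)) (mul_mem (hm 47 (by norm_num))
      (mul_mem (hm 50 (by norm_num)) (hm 43 (by norm_num))))
  · rw [mul_inv_eq_iff_eq_mul]
    have h1 := key 1
    simp only [mul_one] at h1
    simp only [CG.lp_cons, CG.lp_nil, mul_one, mul_assoc]
    exact h1

end Cfsg.Agent.Lib.Helper75.E6I
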